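import Cfsg.Agent.Chev.FusS

/-! Simplicity of the defining characteristic fusion systems of the unitary groups. -/

namespace CF.Chev

open CF.BN CF.Loc Cfsg Matrix

variable {K : Type*} [Field K] {n : ℕ} {φ : K →+* K}

theorem slToMat_x' (r : RtA n) (t : K) :
    slToMat _ K ((slRep n K).x r t) = 1 + t • single r.1.1 r.1.2 1 := by simp [slToMat_x]

theorem x_mem_UpA {r : RtA n} (h : r.1.1 < r.1.2) (t : K) : (slRep n K).x r t ∈ (slRep n K).Up :=
  (slRep n K).x_mem_U ((cbA_pos r).2 h) t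

theorem tri_of_mem_Up {z : SpecialLinearGroup (Fin (n + 1)) K} (h : z ∈ (slRep n K).Up) :
    ∀ a b, b ≤ a → (slToMat _ K z - 1) a b = 0 := by
  refine (slRep n K).U_induction (p := fun z => ∀ a b, b ≤ a → (slToMat _ K z - 1) a b = 0)
    (by simp) (fun g r t _ hr ih a b hb => ?_) h
  have h1 := (cbA_pos r).1 hr
  rw [map_mul, slToMat_x, show ∀ g s : Matrix _ _ K, g * (1 + s) - 1 = g - 1 + s + (g - 1) * s from
    fun g s => by noncomm_ring, Matrix.add_apply, Matrix.add_apply, ih a b hb]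
  obtain rfl | e := eq_or_ne b r.1.2
  · rw [mul_single_apply_same, ih _ _ (h1.le.trans hb), single_apply_of_row_ne (h1.trans_le hb).ne]
    simp
  · rw [mul_single_apply_of_ne _ _ _ _ _ e, single_apply_of_col_ne _ _ e.symm]; simp

/-- The short root elements of the unitary group. -/
noncomputable def mU (φ : K →+* K) (r : RtA n) (t : K) : SpecialLinearGroup (Fin (n + 1)) K :=
  (slRep n K).x r t * (slRep n K).x (revA n r) (-φ t)

theorem mU_mem_Up {r : RtA n} (h : r.1.1 < r.1.2) (t : K) : mU φ r t ∈ (slRep n K).Up :=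
  mul_mem (x_mem_UpA h t) (x_mem_UpA (Fin.rev_lt_rev.2 h) _)

theorem heis_mem_Up {a b c : Fin (n + 1)} (h : a < b) (h' : b < c) (t u s : K) :
    heis h.ne h'.ne (h.trans h').ne t u s ∈ (slRep n K).Up :=
  mul_mem (x_mem_UpA h t) (mul_mem (x_mem_UpA h' u) (x_mem_UpA (h.trans h') s))

theorem lt_rev {a c : Fin (n + 1)} (ha : 2 * a.val < n) (hc : 2 * c.val < n) : a < c.rev := by
  rw [Fin.lt_def, Fin.val_rev]; omega

theorem mem_of_slToMat {A : Subgroup (SpecialLinearGroup (Fin (n + 1)) K)} {y z} (hy : y ∈ A)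
    (e : slToMat _ K y = slToMat _ K z) : z ∈ A := sl_ext e ▸ hy

variable (h : 1 ≤ n) {A : Subgroup (SpecialLinearGroup (Fin (n + 1)) K)}
  (hA : SCl (slRep n K) (twU h φ).Fix A) [Fintype K] {q : ℕ} (hK : Fintype.card K = q ^ 2)
  (hφ : ∀ t, φ t = t ^ q) (h1 : φ ≠ RingHom.id K) (h2 : ∀ t, φ (φ t) = t) {a c μ : Fin (n + 1)}
  (ha : 2 * a.val < n) (hc : 2 * c.val < n) (hμ : 2 * μ.val = n)

omit [Fintype K] in
include hA in
theorem SCl.conjU {g y z} (hy : y ∈ A) (hg : g ∈ (twU h φ).Fix) (hz : z ∈ (slRep n K).Up)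
    (e : slToMat _ K (g * y) = slToMat _ K (z * g)) : z ∈ A := by
  have e := mul_inv_eq_iff_eq_mul.2 (sl_ext e)
  exact e ▸ hA.conj hy hg (e ▸ hz)

include hA hK hφ h2 in
theorem SCl.stepU1 (hac : a ≠ c) {s : K} (hs : φ s = -s) (h0 : s ≠ 0)
    (hl : (slRep n K).x ⟨(c, c.rev), (lt_rev hc hc).ne⟩ s ∈ A) :
    (∀ s, φ s = -s → (slRep n K).x ⟨(a, a.rev), (lt_rev ha ha).ne⟩ s ∈ A) ∧
      ∀ t, mU φ ⟨(a, c.rev), (lt_rev ha hc).ne⟩ t ∈ A := by
  have e : a.val ≠ c.val := Fin.val_ne_of_ne hac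
  have h3 : ∀ t, mU φ ⟨(a, c.rev), (lt_rev ha hc).ne⟩ (s * t) *
      (slRep n K).x ⟨(a, a.rev), (lt_rev ha ha).ne⟩ (s * (t * φ t)) ∈ A := fun t => by
    refine (mul_mem_cancel_left hl).1 (hA.conjU h hl (twU_fix₂ h h2 (r := ⟨(a, c), hac⟩)
      (lt_rev ha ha).ne (lt_rev hc hc).ne t) (mul_mem (x_mem_UpA (lt_rev hc hc) _) (mul_mem
        (mU_mem_Up (lt_rev ha hc) _) (x_mem_UpA (lt_rev ha ha) _))) ?_)
    simp (disch := simp only [Ne, Fin.ext_iff, Fin.val_rev, Fin.val_zero]; omega) only [mU, heis,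
      map_mul, slToMat_x', revA_apply, Fin.rev_rev, hs, map_add, map_neg, map_one, h2, Matrix.mul_add,
      Matrix.add_mul, Matrix.one_mul, Matrix.mul_one, smul_mul_assoc, mul_smul_comm, mul_one,
      single_mul_single_same, single_mul_single_of_ne, smul_zero, add_zero]
    module
  have h4 : ∀ s', φ s' = -s' → (slRep n K).x ⟨(a, a.rev), (lt_rev ha ha).ne⟩ s' ∈ A := fun s' e' => by
    obtain ⟨t, ht⟩ := exists_trace_eq hK hφ (a := s' / s) (by rw [map_div₀, hs, e', neg_div_neg_eq])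
    refine (mul_mem_cancel_left (mul_mem (h3 t) (h3 1))).1 (mem_of_slToMat (h3 (t + 1)) ?_)
    rw [show s' = s * (t + φ t) by rw [ht, mul_div_cancel₀ _ h0]]
    simp (disch := simp only [Ne, Fin.ext_iff, Fin.val_rev, Fin.val_zero]; omega) only [mU, heis,
      map_mul, slToMat_x', revA_apply, Fin.rev_rev, hs, map_add, map_neg, map_one, h2, Matrix.mul_add,
      Matrix.add_mul, Matrix.one_mul, Matrix.mul_one, smul_mul_assoc, mul_smul_comm, mul_one,
      single_mul_single_same, single_mul_single_of_ne, smul_zero, add_zero]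
    module
  refine ⟨h4, fun t => ?_⟩
  have := (mul_mem_cancel_right (h4 _ (by rw [map_mul, map_mul, h2, hs]; ring))).1 (h3 (t / s))
  rwa [mul_div_cancel₀ _ h0] at this

omit [Fintype K] in
include hA h1 h2 in
theorem SCl.stepU2 (hac : a < c)
    (hl : ∀ s, φ s = -s → (slRep n K).x ⟨(a, a.rev), (lt_rev ha ha).ne⟩ s ∈ A)
    (hm : ∀ t, mU φ ⟨(a, c.rev), (lt_rev ha hc).ne⟩ t ∈ A) (t : K) : mU φ ⟨(a, c), hac.ne⟩ t ∈ A := by
  obtain ⟨s, h0, hs⟩ := Geom.exists_skew_ne_zero h1 h2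
  obtain ⟨t, rfl⟩ : ∃ u, t = -(u * s) := ⟨-t / s, by rw [div_mul_cancel₀ _ h0, _root_.neg_neg]⟩
  have e : a.val < c.val := hac
  refine (mul_mem_cancel_right (hl (s * (t * φ t)) (by rw [map_mul, map_mul, h2, hs]; ring))).1
    ((mul_mem_cancel_left (hm t)).1 (hA.conjU h (hm t) (twU_fix₁ h
      (r := ⟨(c.rev, c), (lt_rev hc hc).ne'⟩) (Fin.rev_rev c) hs) (mul_mem (mU_mem_Up (lt_rev ha hc) _)
        (mul_mem (mU_mem_Up hac _) (x_mem_UpA (lt_rev ha ha) _))) ?_))
  · simp (disch := simp only [Ne, Fin.ext_iff, Fin.val_rev, Fin.val_zero]; omega) only [mU, heis,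
      map_mul, slToMat_x', revA_apply, Fin.rev_rev, hs, map_add, map_neg, map_one, h2, Matrix.mul_add,
      Matrix.add_mul, Matrix.one_mul, Matrix.mul_one, smul_mul_assoc, mul_smul_comm, mul_one,
      single_mul_single_same, single_mul_single_of_ne, smul_zero, add_zero]
    module

theorem lt_mid (ha : 2 * a.val < n) (hμ : 2 * μ.val = n) : a < μ := by rw [Fin.lt_def]; omega
theorem mid_lt (ha : 2 * a.val < n) (hμ : 2 * μ.val = n) : μ < a.rev := by
  rw [Fin.lt_def, Fin.val_rev]; omega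
theorem rev_mid (hμ : 2 * μ.val = n) : μ.rev = μ := by rw [Fin.ext_iff, Fin.val_rev]; omega

/-- The Heisenberg elements of the unitary group. -/
noncomputable abbrev hU (φ : K →+* K) (ha : 2 * a.val < n) (hμ : 2 * μ.val = n) (t s : K) :
    SpecialLinearGroup (Fin (n + 1)) K :=
  heis (lt_mid ha hμ).ne (mid_lt ha hμ).ne ((lt_mid ha hμ).trans (mid_lt ha hμ)).ne t (-φ t) s

omit [Fintype K] in
include h2 in
theorem hU_mem_Fix {t s : K} : hU φ ha hμ t s ∈ (twU h φ).Fix ↔ s + φ s = t * φ t := by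
  rw [heis_mem_Fix _ _ _ h (rev_mid hμ) rfl]
  simp only [map_neg, h2, _root_.neg_neg, true_and]
  exact ⟨fun e => by linear_combination -e, fun e => by linear_combination -e⟩

omit [Fintype K] in
include hA h2 in
theorem SCl.stepU3 (hac : a < c)
    (hm : ∀ t, mU φ ⟨(a, c.rev), (lt_rev ha hc).ne⟩ t ∈ A) (hm' : ∀ t, mU φ ⟨(a, c), hac.ne⟩ t ∈ A)
    {t s : K} (h3 : s + φ s = t * φ t) : hU φ hc hμ t s ∈ A := by
  have e : a.val < c.val := hac
  have hs : φ s = t * φ t - s := by rw [← h3]; ring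
  have h4 : hU φ ha hμ t s ∈ A := by
    refine (mul_mem_cancel_left (mul_mem (hm' (-1)) (hm s))).1 (hA.conjU h (hm' (-1))
      ((hU_mem_Fix h h2 hc hμ).2 h3) (mul_mem (mul_mem (mU_mem_Up hac _) (mU_mem_Up (lt_rev ha hc) _))
        (heis_mem_Up (lt_mid ha hμ) (mid_lt ha hμ) _ _ _)) ?_)
    simp (disch := simp only [Ne, Fin.ext_iff, Fin.val_rev, Fin.val_zero]; omega) only [mU, heis,
      map_mul, slToMat_x', revA_apply, Fin.rev_rev, hs, map_add, map_neg, map_one, h2, Matrix.mul_add,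
      Matrix.add_mul, Matrix.one_mul, Matrix.mul_one, smul_mul_assoc, mul_smul_comm, mul_one,
      single_mul_single_same, single_mul_single_of_ne, smul_zero, add_zero]
    module
  refine ((mul_mem_cancel_right (hm s)).1
    ((mul_mem_cancel_left h4).1 (hA.conjU h h4 (twU_fix₂ h h2 (r := ⟨(c, a), hac.ne'⟩)
      (lt_rev hc hc).ne (lt_rev ha ha).ne 1) (mul_mem (heis_mem_Up (lt_mid ha hμ) (mid_lt ha hμ) _ _ _)
        (mul_mem (heis_mem_Up (lt_mid hc hμ) (mid_lt hc hμ) _ _ _) (mU_mem_Up (lt_rev ha hc) _))) ?_)))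
  · simp (disch := simp only [Ne, Fin.ext_iff, Fin.val_rev, Fin.val_zero]; omega) only [mU, heis,
      map_mul, slToMat_x', revA_apply, Fin.rev_rev, hs, map_add, map_neg, map_one, h2, Matrix.mul_add,
      Matrix.add_mul, Matrix.one_mul, Matrix.mul_one, smul_mul_assoc, mul_smul_comm, mul_one,
      single_mul_single_same, single_mul_single_of_ne, smul_zero, add_zero]
    module

omit [Fintype K] in
theorem fix_long {r : RtA n} {s : K} (h1 : (slRep n K).x r s ∈ (twU h φ).Fix)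
    (hr : r.1.1.rev = r.1.2) : φ s = -s := by
  rw [Tw.mem_Fix, show (twU h φ).σ = suσ _ φ from rfl, suσ_x, show revA n r = r from
    Subtype.ext (by rw [revA_apply, hr, ← hr, Fin.rev_rev, hr])] at h1
  exact neg_eq_iff_eq_neg.1 ((faithful_slRep n K h).x_injective r h1)

include hA hK hφ h1 h2 in
theorem SCl.exists_long {p : ℕ} [Fact p.Prime] [CharP K p] (h0 : A ≠ ⊥) : ∃ s ≠ 0, φ s = -s ∧
    (slRep n K).x ⟨(0, Fin.rev 0), (lt_rev (by simpa) (by simpa)).ne⟩ s ∈ A := by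
  have hp := StRep.isPGroup_U (p := p) (faithful_slRep n K h) (cbA n).closed_pos (cbA n).isNil_pos
  obtain ⟨⟨z, hz, hc⟩, h3⟩ := Subgroup.ne_bot_iff_exists_ne_one.1 (inf_centralizer_ne_bot
    (hp.to_le (hA.le.trans inf_le_left)) (hp.to_le (H := _ ⊓ (twU h φ).Fix) inf_le_left)
    (fun g hg => mem_normalizer_of_conj_mem fun y hy => hA.conj hy hg.2
      (mul_mem (mul_mem hg.1 (hA.le hy).1) (inv_mem hg.1))) h0)
  have h4 := tri_of_mem_Up (hA.le hz).1
  obtain ⟨Y, hY⟩ : ∃ Y, slToMat _ K z = 1 + Y := ⟨slToMat _ K z - 1, by abel⟩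
  rw [hY, add_sub_cancel_left] at h4
  have h5 : ∀ j : Fin (n + 1), j ≠ 0 → j.rev ≠ 0 → ∀ t l, t * Y j l =
      if l = Fin.rev 0 then -φ t * Y 0 j.rev else 0 := fun j h5 h6 t l => by
    have h7 : 0 < j := Fin.pos_iff_ne_zero.2 h5
    obtain ⟨g, hg, c, e⟩ : ∃ g ∈ (slRep n K).Up ⊓ (twU h φ).Fix, ∃ c, slToMat _ K g =
        1 + (single 0 j t + single j.rev (Fin.rev 0) (-φ t) + single 0 (Fin.rev 0) c) := by
      by_cases e : j = j.rev
      · have h8 : 2 * j.val = n := by rw [Fin.ext_iff, Fin.val_rev] at e; omega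
        obtain ⟨s, hs⟩ := exists_trace_eq hK hφ (a := t * φ t) (by rw [map_mul, h2, mul_comm])
        exact ⟨hU φ (a := 0) (by simpa) h8 t s, ⟨heis_mem_Up h7 (mid_lt (by simpa) h8) _ _ _,
          (hU_mem_Fix h h2 _ h8).2 hs⟩, _, by rw [slToMat_heis, ← e, ← add_assoc, ← add_assoc]⟩
      · refine ⟨mU φ ⟨(0, j), h5.symm⟩ t, ⟨mU_mem_Up h7 _,
          twU_fix₂ h h2 (lt_rev (by simpa) (by simpa)).ne e _⟩, 0, ?_⟩
        simp only [mU, map_mul, slToMat_x, revA_apply]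
        simp [Matrix.add_mul, Matrix.mul_add, e, add_assoc]
    have h8 := congrFun₂ (congrArg (slToMat _ K) (hc g hg)) 0 l
    have h9 := h4 (Fin.rev 0) l (Fin.le_last l)
    rw [map_mul, map_mul, e, hY, show ∀ a b : Matrix _ _ K, (1 + a) * (1 + b) = 1 + a + b + a * b from
      fun a b => by noncomm_ring, show ∀ a b : Matrix _ _ K, (1 + a) * (1 + b) = 1 + b + a + a * b from
      fun a b => by noncomm_ring, Matrix.add_apply, Matrix.add_apply _ (Y * _), add_right_inj] at h8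
    simp only [Matrix.add_mul, Matrix.mul_add, Matrix.add_apply, single_mul_apply_same, h9,
      single_mul_apply_of_ne _ _ _ _ _ h6.symm, mul_zero, add_zero] at h8
    rw [h8]
    obtain rfl | e := eq_or_ne l j
    · have : l ≠ Fin.rev 0 := fun e => h6 (by rw [e, Fin.rev_rev])
      simp [mul_single_apply_of_ne _ _ _ _ _ this, h4 0 0 le_rfl, -Fin.rev_zero, this]
    · rw [mul_single_apply_of_ne _ _ _ _ _ e]
      split_ifs with e'
      · simp [e', h4 0 0 le_rfl, mul_comm]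
      · simp [mul_single_apply_of_ne _ _ _ _ _ e', -Fin.rev_zero]
  have h6 : ∀ j : Fin (n + 1), j ≠ 0 → j.rev ≠ 0 → ∀ l, Y j l = 0 ∧ Y 0 j.rev = 0 := fun j h6 h7 l => by
    obtain ⟨t, ht⟩ : ∃ t, φ t ≠ t := not_forall.1 fun e => h1 (RingHom.ext e)
    have h8 := h5 j h6 h7 1 (Fin.rev 0)
    have h9 := h5 j h6 h7 t (Fin.rev 0)
    rw [if_pos rfl] at h8 h9
    rw [map_one] at h8
    have h10 : Y 0 j.rev = 0 := (mul_eq_zero.1 (by linear_combination h9 - t * h8)).resolve_left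
      (sub_ne_zero.2 ht)
    exact ⟨by simpa [h10] using h5 j h6 h7 1 l, h10⟩
  obtain rfl : z = (slRep n K).x ⟨(0, Fin.rev 0), (lt_rev (by simpa) (by simpa)).ne⟩
      (Y 0 (Fin.rev 0)) := sl_ext (by
    rw [hY, slToMat_x, add_right_inj]
    ext a b
    rw [single_apply]
    split_ifs with e
    · rw [← e.1, ← e.2]
    obtain rfl | h7 := eq_or_ne a 0
    · obtain rfl | h8 := eq_or_ne b 0
      · exact h4 0 0 le_rfl
      · simpa using (h6 b.rev (fun e' => e ⟨rfl, (Fin.rev_eq_iff.1 e').symm⟩) (by simpa) 0).2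
    · obtain h8 | h8 := eq_or_ne a.rev 0
      · exact h4 a b (by rw [← Fin.rev_le_rev, h8]; exact Fin.zero_le _)
      · exact (h6 a h7 h8 b).1)
  refine ⟨_, fun e => h3 (Subtype.ext ?_), ?_, hz⟩
  · simp only [e, PreSt.x_zero]; rfl
  · exact fix_long h (hA.le hz).2 rfl

include hA hK hφ h1 h2 in
theorem SCl.blkU_le {p : ℕ} [Fact p.Prime] [CharP K p] (h3 : 3 ≤ n) (h0 : A ≠ ⊥) (i : Fin n) :
    blk (twU h φ) i ≤ A := by
  obtain ⟨s, h4, hs, h5⟩ := hA.exists_long h hK hφ h1 h2 h0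
  obtain ⟨s', h6, hs'⟩ := Geom.exists_skew_ne_zero h1 h2
  have h7 : 2 * (0 : Fin (n + 1)).val < n := by simpa
  have hl : ∀ {a : Fin (n + 1)} (ha : 2 * a.val < n) s, φ s = -s →
      (slRep n K).x ⟨(a, a.rev), (lt_rev ha ha).ne⟩ s ∈ A := fun {a} ha => by
    have h8 := fun (a : Fin (n + 1)) ha e => (hA.stepU1 h hK hφ h2 (a := a) ha h7 e hs h4 h5).1
    obtain rfl | e := eq_or_ne a 0
    · have e : (⟨1, by omega⟩ : Fin (n + 1)) ≠ 0 := by simp
      have e' : 2 * (⟨1, by omega⟩ : Fin (n + 1)).val < n := h3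
      exact (hA.stepU1 h hK hφ h2 ha e' e.symm hs' h6 (h8 _ e' e _ hs')).1
    · exact h8 a ha e
  have hm := fun {a c : Fin (n + 1)} ha hc (e : a ≠ c) =>
    (hA.stepU1 h hK hφ h2 ha hc e hs' h6 (hl hc _ hs')).2
  have hm' := fun {a c : Fin (n + 1)} ha hc (e : a < c) =>
    hA.stepU2 h h1 h2 ha hc e (hl ha) (hm ha hc e.ne)
  intro y hy
  rcases nodeU_cases i with e | ⟨k, e, hk⟩ | ⟨e, e1, e2⟩
  · obtain ⟨t, rfl⟩ := (slRep n K).mem_X.1 ((slRep n K).U_singleton ((cbA n).simple i) ▸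
      (slRep n K).U_mono (fun r hr => by
        obtain ⟨j, hj, rfl⟩ := RootSys.eq_simple_of_orth (fun j hj k hk h => absurd (by
          rw [twU_orb, e, or_self] at hj hk; rw [hj, hk]) h) hr.1 hr.2
        rw [twU_orb, e, or_self] at hj; rw [hj]; rfl) hy.1)
    have h8 : i.castSucc.rev = i.succ := by rw [Fin.rev_castSucc, e]
    refine mem_of_slToMat (hl (a := i.castSucc) (by
      rw [Fin.ext_iff, Fin.val_rev] at e; simp; omega) t (fix_long h hy.2 (by rwa [cbA_simple]))) ?_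
    simp only [slToMat_x, cbA_simple, h8]
  · obtain ⟨h8, h9, h10, h11, h12, -⟩ := heisU_aux hk
    rw [blk, Sym.orb_eq_of_mem _ ((twU_orb h).2 e), Subgroup.mem_inf, mem_blockU h hk] at hy
    obtain ⟨⟨t, u, s, rfl⟩, hy⟩ := hy
    obtain ⟨-, rfl, hy⟩ := (heis_mem_Fix h8 h9 h10 h h11 h12).1 hy
    have h13 : 2 * k.castSucc.val < n := by simp; omega
    have h14 : 0 < k.castSucc := by rw [Fin.lt_def]; simp; omega
    refine mem_of_slToMat (hA.stepU3 h h2 h7 h13 (μ := k.succ) (by simp; omega) h14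
      (hm h7 h13 h14.ne) (hm' h7 h13 h14) (t := t) (s := s) (by
        rw [map_neg, h2] at hy; linear_combination -hy)) ?_
    rw [slToMat_heis, slToMat_heis, h12]
  obtain ⟨k, hk, h8⟩ : ∃ k : Fin n, (i = k ∨ i = k.rev) ∧ 2 * k.val + 2 < n := by
    simp only [Ne, Fin.ext_iff, Fin.val_rev] at e
    by_cases e : 2 * i.val < n
    · exact ⟨i, .inl rfl, by omega⟩
    · exact ⟨i.rev, .inr (Fin.rev_rev i).symm, by rw [Fin.val_rev]; omega⟩
  rw [blk, Sym.orb_eq_of_mem _ ((twU_orb h).2 hk)] at hy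
  have h9 : {r | (cbA n).Pos r ∧ (cbA n).InSub ((twU h φ).S.orb k) r} =
      {(cbA n).simple k} ∪ {(cbA n).simple k.rev} := by
    refine Set.Subset.antisymm (fun r hr => ?_) ?_
    · obtain ⟨j, hj, rfl⟩ := RootSys.eq_simple_of_orth (fun j hj k hk h => by
        simp only [twU_orb, cbA_car, Ne, Fin.ext_iff, Fin.val_rev] at *
        split_ifs <;> omega) hr.1 hr.2
      exact ((twU_orb h).1 hj).imp (congrArg _) (congrArg _)
    · rintro _ (rfl | rfl) <;> exact ⟨(cbA n).pos_simple _, (cbA n).inSub_simple.2 (by simp [twU_orb])⟩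
  obtain ⟨_, h10, _, h11, rfl⟩ := (slRep n K).exists_mul_of_mem_U
    (h9 ▸ (cbA n).closed_pos.inter ((cbA n).closed_inSub _))
    (h9 ▸ (cbA n).isNil_pos.mono fun _ h => h.1) (h9 ▸ hy.1)
  rw [PreSt.U_singleton, PreSt.mem_X] at h10 h11
  obtain ⟨⟨t, rfl⟩, u, rfl⟩ := And.intro h10 h11
  have h12 := hm' (a := k.castSucc) (c := k.succ) (by simp; omega) (by simp; omega)
    Fin.castSucc_lt_succ t
  have h13 : revA n ((cbA n).simple k) = (cbA n).simple k.rev := (twU h φ).π_simple k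
  rw [mU, ← cbA_simple, h13] at h12
  have h14 := mul_mem (inv_mem (ir (hA.le h12))) (ir hy)
  rw [_root_.mul_inv_rev, mul_assoc, inv_mul_cancel_left, ← PreSt.x_neg, ← PreSt.x_add,
    Tw.mem_Fix, show (twU h φ).σ = suσ _ φ from rfl, suσ_x, ← h13] at h14
  obtain rfl : u = -φ t := by_contra fun e => by
    have := Tw.eq_of_x_eq (faithful_slRep n K h) (fun e' => e (by linear_combination e')) h14.symm
    rw [show revA n (revA n _) = _ from (revA n).left_inv _, h13] at this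
    have := congrArg Fin.val ((cbA n).simple_injective this)
    rw [Fin.val_rev] at this; omega
  exact h12

theorem fusion_simple_PSU {p : ℕ} [Fact p.Prime] [CharP K p] (hK : Fintype.card K = q ^ 2) (h3 : 3 ≤ n)
    (S : Sylow p (PSU (n + 1) K q)) : (groupFusionSystem (S : Subgroup (PSU (n + 1) K q))).IsSimple p := by
  obtain ⟨φ, h4, h5, h6⟩ := Geom.exists_conj hK
  have h : 1 ≤ n := by omega
  refine (lt0U h hK h4 h5 h6).fusion_simple (genU h hK h4 h5 h6 (by omega) (by omega))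
    (fun i e => ?_) (fun A hA => hA.blkU_le h hK h4 h5 h6 h3) (nonempty_SU_equiv hK h4 h6 h).some S
  have h7 := fun j => (twU_orb h).1 (e.ge (Set.mem_univ j))
  have h8 := h7 ⟨0, by omega⟩
  have h9 := h7 ⟨1, by omega⟩
  have h10 := h7 ⟨2, by omega⟩
  simp only [Fin.ext_iff] at h8 h9 h10
  omega

end CF.Chev
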