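import Cfsg.Agent.BlockB.Idem
import Cfsg.Agent.BN.Cox
import Cfsg.Agent.Clifford.PermChar
import Cfsg.Agent.Char.Induce
import Cfsg.Agent.Chev.Types
import Cfsg.Agent.Chev.Stein
import Cfsg.Agent.Chev.K2
import Cfsg.Agent.Chev.Syl
import Cfsg.Prelude.Def_ParabolicCharacters

/-! Tits' deformation argument: the number of constituents of `1_B^G` is the number of
conjugacy classes of the Weyl group. -/

namespace CF.Chev

open Polynomial Finset Cfsg CF.BN CF.BlockB MonoidAlgebra
open scoped Matrix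

theorem exists_mul_mul_eq_one {m n K : Type*} [Fintype m] [Fintype n] [Field K] (M : Matrix m n K) :
    ∃ (A : Matrix (Fin M.rank) m K) (B : Matrix n (Fin M.rank) K), A * M * B = 1 := by
  classical
  let b := (Module.finBasis K (LinearMap.range M.mulVecLin)).equivFun
  obtain ⟨g, hg⟩ := M.mulVecLin.rangeRestrict.exists_rightInverse_of_surjective (by simp)
  obtain ⟨l, hl⟩ := (LinearMap.range M.mulVecLin).subtype.exists_leftInverse_of_injective (by simp)
  refine ⟨LinearMap.toMatrix' (b.toLinearMap ∘ₗ l), LinearMap.toMatrix' (g ∘ₗ b.symm.toLinearMap),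
    Matrix.toLin'.injective ?_⟩
  refine LinearMap.ext fun v => ?_
  have := congr(b (l ($hg (b.symm v))))
  have h2 := congr(b ($hl (b.symm v)))
  simpa using! this.trans (h2.trans (b.apply_symm_apply v))

theorem finite_rank_lt {m n K : Type*} [Fintype m] [Fintype n] [Field K] (M : Matrix m n K[X])
    (a : K) : {c | (M.map (eval c)).rank < (M.map (eval a)).rank}.Finite := by
  obtain ⟨A, B, h⟩ := exists_mul_mul_eq_one (M.map (eval a))
  have H (c) : eval c (A.map C * M * B.map C).det = (A * M.map (eval c) * B).det := by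
    rw [← coe_evalRingHom, RingHom.map_det]
    rw [RingHom.mapMatrix_apply, Matrix.map_mul, Matrix.map_mul]
    simp [Function.comp_def]
  refine (finite_setOfPred_isRoot (p := (A.map C * M * B.map C).det) fun e => by
    simpa [e, h] using H a).subset fun c hc => by_contra fun e => (Set.mem_ofPred_eq ▸ hc).not_ge ?_
  simpa using (Matrix.rank_of_det_ne_zero ((H c).symm.trans_ne e)).ge.trans
    ((Matrix.rank_mul_le_left _ _).trans (Matrix.rank_mul_le_right _ _))

theorem rank_add_rank_le {l m n K : Type*} [Fintype l] [Fintype m] [Fintype n] [Field K]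
    {M : Matrix l m K[X]} {N : Matrix m n K[X]}
    (h : {c | M.map (eval c) * N.map (eval c) = 0}.Infinite) (a b : K) :
    (M.map (eval a)).rank + (N.map (eval b)).rank ≤ Fintype.card m := by
  obtain ⟨c, h1, h2⟩ := (h.sdiff ((finite_rank_lt M a).union (finite_rank_lt N b))).nonempty
  simp only [Set.mem_union, Set.mem_ofPred_eq, not_or, not_lt] at h2
  exact (add_le_add h2.1 h2.2).trans (Matrix.rank_add_rank_le_card_of_mul_eq_zero h1)

variable {I W : Type*} [Group W] [Fintype W] [DecidableEq W] (C : InvGen I W)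

/-- Multiplication by a generator in the generic Hecke algebra. -/
noncomputable def hkL (i : I) : Matrix W W ℂ[X] := .of fun z y =>
  if C.len y ≤ C.len (C.s i * y) then (if z = C.s i * y then 1 else 0)
  else (if z = C.s i * y then X else 0) + if z = y then 1 - X else 0

/-- The structure constants of the generic Hecke algebra. -/
noncomputable def hkW (x : W) : Matrix W W ℂ[X] := ((C.exists_red x).choose.map (hkL C)).prod

/-- Right multiplications. -/
noncomputable def hkR (x : W) : Matrix W W ℂ[X] := .of fun z y => hkW C y z x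

/-- The equations of the centre. -/
noncomputable def hkC : Matrix (W × W) W ℂ[X] := .of fun p y => hkW C p.1 p.2 y - hkR C p.1 p.2 y

/-- The averaging operator. -/
noncomputable def hkH : Matrix W W ℂ[X] :=
  ∑ w, (X ^ (univ.sup C.len - C.len w) : ℂ[X]) • (hkR C w⁻¹ * hkW C w)

variable {G : Type*} [Group G] [Fintype G]

/-- Double cosets multiplying like Bruhat cells. -/
structure Dbl (B : Subgroup G) (q : ℕ) where
  wt : G → W
  surj : Function.Surjective wt
  iff : ∀ g g', wt g = wt g' ↔ ∃ b ∈ B, ∃ b' ∈ B, g = b * g' * b'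
  one : wt 1 = 1
  inv : ∀ g, wt g⁻¹ = (wt g)⁻¹
  up : ∀ i x y, wt x = C.s i → C.len (wt y) ≤ C.len (C.s i * wt y) → wt (x * y) = C.s i * wt y
  mul : ∀ i x y, wt x = C.s i → wt (x * y) = C.s i * wt y ∨ wt (x * y) = wt y
  card : ∀ w, #{g | wt g = w} = Nat.card B * q ^ C.len w
  pos : q ≠ 0
  exch : C.Exch

/-- The idempotent of a subgroup. -/
noncomputable def eB (B : Subgroup G) : ℂ[G] :=
  open scoped Classical in (Nat.card B : ℂ)⁻¹ • ∑ b : B, single b.1 1

/-- The sum of the conjugates. -/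
noncomputable def avC (a : ℂ[G]) : ℂ[G] := ∑ g, single g 1 * a * single g⁻¹ 1

theorem avC_mem (a : ℂ[G]) : avC a ∈ Z ℂ G := Subalgebra.mem_center_iff.2
  (commute_of_forall_single fun h => by
    rw [avC, sum_mul, mul_sum, ← Equiv.sum_comp (Equiv.mulLeft h⁻¹)]
    simp [← mul_assoc, single_mul_single, mul_assoc _ (single _ _) (single _ _)])

theorem omega_avC (χ : IrrCharacter G) (a : ℂ[G]) : omega χ.1 (avC a) = Nat.card G * omega χ.1 a := by
  simp [omega_apply, avC, ev_mul_comm (CF.Char.irr_isClassFunction χ.2) _ (single _ _), ← mul_assoc,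
    single_mul_single, ← one_def, mul_div_assoc]

theorem mul_eSet {z : ℂ[G]} (hz : z ∈ Z ℂ G) (χ : IrrCharacter G) :
    z * eSet {χ} = omega χ.1 z • eSet {χ} :=
  Z_ext (mul_mem hz (eSet_mem_Z _)) (Subalgebra.smul_mem _ (eSet_mem_Z _) _) fun ψ => by
    rw [omega_central_mul ψ.2 hz, map_smul, omega_eSet]; split_ifs with h <;> simp_all

theorem eq_zero_of_idem {u : ℂ[G]} (hu : u * u = u) (h : ∀ χ : IrrCharacter G, ev χ.1 u = 0) :
    u = 0 := by
  ext g
  rw [show u.coeff g = (u * single g⁻¹ 1).coeff 1 by simp, coeff_one_eq_sum, sum_eq_zero, mul_zero]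
  · rfl
  intro χ _
  obtain ⟨n, ρ, -, e⟩ := χ.2
  have := h χ
  rw [← e, ev_character] at this ⊢
  rw [map_mul, LinearMap.IsIdempotentElem.eq_zero_of_trace_eq_zero
    (show ρ.asAlgebraHom u * _ = _ by rw [← map_mul, hu]) this]
  simp

/-- The constituents of the permutation character. -/
abbrev Cst (B : Subgroup G) := {χ : IrrCharacter G // ev χ.1 (eB B) ≠ 0}

theorem mul_avC_mul (a b : ℂ[G]) (χ : IrrCharacter G) :
    a * avC b * eSet {χ} = (Nat.card G * omega χ.1 b) • (a * eSet {χ}) := by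
  rw [mul_assoc, mul_eSet (avC_mem _), omega_avC, mul_smul_comm]

open scoped Classical in
theorem ev_mul_eSet (a : ℂ[G]) (χ ψ : IrrCharacter G) :
    ev ψ.1 (a * eSet {χ}) = if ψ = χ then ev ψ.1 a else 0 := by
  simp [ev_mul_central ψ.2 (eSet_mem_Z _), omega_eSet]

variable {B : Subgroup G}

theorem mul_eB {a : ℂ[G]} (h : ∀ b ∈ B, a * single b 1 = a) : a * eB B = a := by
  simp [eB, mul_sum, h, ← Nat.cast_smul_eq_nsmul ℂ, smul_smul, ← Nat.card_eq_fintype_card]

theorem eB_mul {a : ℂ[G]} (h : ∀ b ∈ B, single b 1 * a = a) : eB B * a = a := by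
  simp [eB, sum_mul, h, ← Nat.cast_smul_eq_nsmul ℂ, smul_smul, ← Nat.card_eq_fintype_card]

theorem single_mul_eB {b : G} (h : b ∈ B) : single b 1 * eB B = eB B := by
  classical
  rw [eB, mul_smul_comm, mul_sum, ← Equiv.sum_comp (Equiv.mulLeft (⟨b, h⟩ : B)) fun b => single b.1 1]
  simp [single_mul_single]

theorem eB_mul_single {b : G} (h : b ∈ B) : eB B * single b 1 = eB B := by
  classical
  rw [eB, smul_mul_assoc, sum_mul,
    ← Equiv.sum_comp (Equiv.mulRight (⟨b, h⟩ : B)) fun b => single b.1 1]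
  simp [single_mul_single]

theorem eB_mul_self : eB B * eB B = eB B := eB_mul fun _ => single_mul_eB

namespace Dbl

variable {C} {q : ℕ} (D : Dbl C B q)

omit [Fintype W]

theorem wt_left {b : G} (h : b ∈ B) (g : G) : D.wt (b * g) = D.wt g :=
  (D.iff _ _).2 ⟨b, h, 1, one_mem _, by simp⟩

theorem wt_right {b : G} (h : b ∈ B) (g : G) : D.wt (g * b) = D.wt g :=
  (D.iff _ _).2 ⟨1, one_mem _, b, h, by simp⟩

/-- The standard basis of the Hecke algebra. -/
noncomputable def U (w : W) : ℂ[G] := eB B * single (Function.surjInv D.surj w) 1 * eB B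

theorem U_wt (g : G) : D.U (D.wt g) = eB B * single g 1 * eB B := by
  obtain ⟨b, hb, b', hb', e⟩ := (D.iff _ g).1 (Function.surjInv_eq D.surj _)
  rw [U, e, show single (b * g * b') 1 = single b 1 * single g 1 * single b' (1 : ℂ) by
    simp [single_mul_single], ← mul_assoc, ← mul_assoc, eB_mul_single hb, mul_assoc, single_mul_eB hb']

theorem U_one : D.U 1 = eB B := by rw [← D.one, U_wt, ← one_def, mul_one, eB_mul_self]

theorem e_mul_U (w : W) : eB B * D.U w = D.U w := by simp only [U, ← mul_assoc, eB_mul_self]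

theorem U_mul_e (w : W) : D.U w * eB B = D.U w := by simp only [U, mul_assoc, eB_mul_self]

variable [Fintype W]

theorem sum_wt {M : Type*} [AddCommGroup M] [Module ℂ M] (f : W → M) :
    ∑ g, f (D.wt g) = ∑ w, (Nat.card B * q ^ C.len w : ℂ) • f w := by
  rw [← sum_fiberwise univ D.wt]
  refine sum_congr rfl fun w _ => ?_
  rw [sum_congr rfl fun g hg => congrArg f (mem_filter.1 hg).2, sum_const, D.card,
    ← Nat.cast_smul_eq_nsmul ℂ]
  simp

omit [Fintype W] in
theorem sandwich (a : ℂ[G]) : eB B * a * eB B = ∑ g, a.coeff g • D.U (D.wt g) := by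
  nth_rw 1 [eq_sum_single a]
  simp only [mul_sum, sum_mul, U_wt]
  exact sum_congr rfl fun g _ => by rw [← smul_mul_assoc, ← mul_smul_comm]; simp

omit [Fintype W] in
theorem U_mul_up {i : I} {y : W} (h : C.len y ≤ C.len (C.s i * y)) :
    D.U (C.s i) * D.U y = D.U (C.s i * y) := by
  obtain ⟨y, rfl⟩ := D.surj y
  obtain ⟨x, hx⟩ := D.surj (C.s i)
  have (b : B) : eB B * single x 1 * single b.1 1 * single y 1 * eB B = D.U (C.s i * D.wt y) := by
    rw [← D.up i (x * b) y (by rwa [D.wt_right b.2]) h, U_wt]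
    simp [single_mul_single, mul_assoc]
  rw [← hx, U_wt, U_wt, hx, ← mul_assoc, ← mul_assoc, mul_assoc _ (eB B) (eB B), eB_mul_self]
  nth_rw 2 [eB]
  simp [mul_sum, sum_mul, this, ← Nat.cast_smul_eq_nsmul ℂ, smul_smul, ← Nat.card_eq_fintype_card]

theorem U_sq (i : I) :
    D.U (C.s i) * D.U (C.s i) = (q : ℂ)⁻¹ • eB B + (1 - (q : ℂ)⁻¹) • D.U (C.s i) := by
  obtain ⟨x, hx⟩ := D.surj (C.s i)
  have h0 := D.exch.s_ne_one i
  set π : ℂ[G] := ofFun fun g => if D.wt g = 1 then 1 else if D.wt g = C.s i then 1 else 0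
  have h1 : eB B * π = π := eB_mul fun b hb => by
    ext g; simp [π, coeff_ofFun, D.wt_left (inv_mem hb)]
  have h2 : single x 1 * π = π := by
    ext g
    have := D.mul i x⁻¹ g (by rw [D.inv, hx, C.inv_s])
    have := C.mul_self i
    have := C.s_mul_s_mul i (D.wt g)
    simp only [π, coeff_single_mul_apply, coeff_ofFun, one_mul]
    grind
  have h3 : π * eB B = (Nat.card B : ℂ) • (eB B + (q : ℂ) • D.U (C.s i)) := by
    rw [← h1, D.sandwich]
    simp only [π, coeff_ofFun]
    rw [D.sum_wt (fun w => (if w = 1 then 1 else if w = C.s i then 1 else 0 : ℂ) •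
      D.U w), sum_eq_add 1 (C.s i) h0.symm (by simp +contextual) (by simp) (by simp)]
    simp [h0, C.len_one, C.len_s i h0, U_one, mul_smul]
  have h4 : D.U (C.s i) * (π * eB B) = π * eB B := by
    rw [← hx, U_wt, ← mul_assoc, mul_assoc _ _ π, h1, mul_assoc _ _ π, h2, h1]
  rw [h3, mul_smul_comm, smul_right_inj (Nat.cast_ne_zero.2 Nat.card_pos.ne'), mul_add, U_mul_e, mul_smul_comm] at h4
  have := D.pos
  refine smul_right_injective _ (Nat.cast_ne_zero (R := ℂ).2 this) ?_
  simp only [smul_add, smul_smul, mul_sub, mul_inv_cancel₀ (Nat.cast_ne_zero (R := ℂ).2 this)]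
  linear_combination (norm := module) h4

/-- Coordinates in the Hecke algebra. -/
noncomputable def φ : (W → ℂ) →ₗ[ℂ] ℂ[G] := Fintype.linearCombination ℂ D.U

theorem φ_apply (f : W → ℂ) : D.φ f = ∑ w, f w • D.U w := rfl

theorem φ_injective : Function.Injective D.φ := (injective_iff_map_eq_zero _).2 fun f hf => by
  ext w
  have h (x) : ev (fun g => if D.wt g = w then 1 else 0) (D.U x) = if x = w then (1 : ℂ) else 0 := by
    simp [U, eB, mul_sum, sum_mul, single_mul_single, ev_single, D.wt_left, D.wt_right,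
      Function.surjInv_eq, ← Nat.card_eq_fintype_card]
  simpa [φ_apply, h] using congrArg (ev fun g => if D.wt g = w then 1 else 0) hf

theorem exists_φ (a : ℂ[G]) : ∃ f, D.φ f = eB B * a * eB B :=
  D.sandwich a ▸ Submodule.sum_mem (LinearMap.range D.φ) fun g _ => Submodule.smul_mem _ _
    ⟨Pi.single (D.wt g) 1, by simp [φ]⟩

theorem e_mul_φ (f : W → ℂ) : eB B * D.φ f = D.φ f := by simp [φ_apply, mul_sum, e_mul_U]

theorem φ_mul_e (f : W → ℂ) : D.φ f * eB B = D.φ f := by simp [φ_apply, sum_mul, U_mul_e]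

theorem φ_mulVec (M : Matrix W W ℂ) (f : W → ℂ) :
    D.φ (M *ᵥ f) = ∑ y, f y • ∑ z, M z y • D.U z := by
  simp only [φ_apply, Matrix.mulVec, dotProduct, sum_smul, smul_sum, smul_smul, mul_comm (f _)]
  exact sum_comm

theorem s_mul_φ (i : I) (f : W → ℂ) :
    D.U (C.s i) * D.φ f = D.φ ((hkL C i).map (eval (q : ℂ)⁻¹) *ᵥ f) := by
  rw [φ_mulVec, φ_apply, mul_sum]
  refine sum_congr rfl fun y _ => (mul_smul_comm _ _ _).trans (congrArg _ ?_)
  by_cases h : C.len y ≤ C.len (C.s i * y)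
  · simp [hkL, h, D.U_mul_up h, apply_ite (eval _)]
  have := D.U_mul_up (i := i) (y := C.s i * y) (by rw [C.s_mul_s_mul]; omega)
  rw [C.s_mul_s_mul] at this
  nth_rw 1 [← this]
  rw [← mul_assoc, U_sq, add_mul, smul_mul_assoc, smul_mul_assoc, this, e_mul_U]
  simp [hkL, h, apply_ite (eval _), add_smul, sum_add_distrib]

theorem U_mul_φ (x : W) (f : W → ℂ) :
    D.U x * D.φ f = D.φ ((hkW C x).map (eval (q : ℂ)⁻¹) *ᵥ f) := by
  obtain ⟨h1, h2⟩ := (C.exists_red x).choose_spec
  rw [hkW]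
  generalize (C.exists_red x).choose = l at *
  subst h2
  induction l generalizing f with
  | nil => simp [U_one, e_mul_φ]
  | cons i l ih =>
    rw [C.wp_cons, ← D.U_mul_up (by
      rw [← C.wp_cons, (C.red_iff _).1 h1, (C.red_iff _).1 h1.tail]; simp), mul_assoc, ih _ h1.tail,
      s_mul_φ, Matrix.mulVec_mulVec, List.map_cons, List.prod_cons, ← coe_evalRingHom, Matrix.map_mul]

theorem U_mul_U (x y : W) :
    D.U x * D.U y = ∑ z, eval (q : ℂ)⁻¹ (hkW C x z y) • D.U z := by
  simpa [φ_apply, Pi.single_apply] using D.U_mul_φ x (Pi.single y 1)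

theorem φ_mul_U (x : W) (f : W → ℂ) :
    D.φ f * D.U x = D.φ ((hkR C x).map (eval (q : ℂ)⁻¹) *ᵥ f) := by
  simp [φ_mulVec, D.φ_apply f, sum_mul, U_mul_U, hkR]

theorem hkC_mulVec {f : W → ℂ} : (hkC C).map (eval (q : ℂ)⁻¹) *ᵥ f = 0 ↔
    ∀ x, D.U x * D.φ f = D.φ f * D.U x := by
  simp only [U_mul_φ, φ_mul_U, D.φ_injective.eq_iff, funext_iff, Prod.forall]
  simp [hkC, Matrix.mulVec, dotProduct, sub_mul, sub_eq_zero]

theorem sum_U (f : W → ℂ) : ∑ g, D.U (D.wt g) * D.φ f * D.U (D.wt g)⁻¹ = eB B * avC (D.φ f) := by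
  rw [← eB_mul_self, mul_assoc, Z_comm (avC_mem _), ← mul_assoc, avC, mul_sum, sum_mul]
  refine sum_congr rfl fun g _ => ?_
  rw [← D.inv, U_wt, U_wt, mul_assoc _ (eB B), e_mul_φ, ← mul_assoc, ← mul_assoc,
    mul_assoc _ (D.φ f) (eB B), φ_mul_e]
  simp only [mul_assoc]

theorem φ_hkH (f : W → ℂ) : (Nat.card B * q ^ univ.sup C.len : ℂ) •
    D.φ ((hkH C).map (eval (q : ℂ)⁻¹) *ᵥ f) = eB B * avC (D.φ f) := by
  rw [← sum_U, D.sum_wt fun w => D.U w * D.φ f * D.U w⁻¹, hkH, ← coe_evalRingHom,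
    ← RingHom.mapMatrix_apply, map_sum, Matrix.sum_mulVec, map_sum, smul_sum]
  refine sum_congr rfl fun w _ => ?_
  obtain ⟨k, hk⟩ := Nat.exists_eq_add_of_le (le_sup (f := C.len) (mem_univ w))
  rw [U_mul_φ, φ_mul_U, Matrix.mulVec_mulVec, RingHom.mapMatrix_apply, Matrix.map_smul' _ _ _
    (map_mul _), Matrix.map_mul, Matrix.smul_mulVec, map_smul, smul_smul, hk]
  simp [pow_add, mul_assoc, D.pos]

include D

theorem good : (hkC C).map (eval (q : ℂ)⁻¹) * (hkH C).map (eval (q : ℂ)⁻¹) = 0 :=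
  Matrix.toLin'.injective <| LinearMap.ext fun f => by
    have : (Nat.card B * q ^ univ.sup C.len : ℂ) ≠ 0 := by simp [D.pos, Nat.card_pos.ne']
    rw [map_zero, Matrix.toLin'_apply, ← Matrix.mulVec_mulVec]
    refine D.hkC_mulVec.2 fun x => smul_right_injective _ this ?_
    simp only
    rw [← mul_smul_comm, ← smul_mul_assoc, φ_hkH, ← mul_assoc, U_mul_e, Z_comm (avC_mem _),
      Z_comm (avC_mem _), mul_assoc, e_mul_U]

theorem card_le_rank : Nat.card (Cst B) ≤ ((hkH C).map (eval (q : ℂ)⁻¹)).rank := by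
  classical
  rw [Matrix.rank, (Submodule.equivMapOfInjective _ D.φ_injective _).finrank_eq,
    Nat.card_eq_fintype_card]
  have h : LinearIndependent ℂ fun χ : Cst B => eB B * eSet {χ.1} :=
    Fintype.linearIndependent_iff.2 fun c hc ψ => by
      simpa [ev_mul_eSet, Subtype.val_inj, ψ.2] using congrArg (ev ψ.1.1) hc
  rw [← finrank_span_eq_card h]
  refine Submodule.finrank_mono (Submodule.span_le.2 ?_)
  rintro _ ⟨χ, rfl⟩
  obtain ⟨f, hf⟩ := D.exists_φ (eSet {χ.1})
  rw [Z_comm (eSet_mem_Z _), mul_assoc, eB_mul_self, ← Z_comm (eSet_mem_Z _)] at hf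
  have h1 := D.φ_hkH f
  rw [eq_sum_eSet_singleton (avC_mem _), hf, sum_eq_single χ.1 (fun ψ _ e => by
    rw [omega_avC]; simp [omega_apply, ev_mul_eSet, e]) (by simp), mul_smul_comm, omega_avC] at h1
  refine (Submodule.smul_mem_iff _ ?_).1 (h1 ▸ Submodule.smul_mem _ _
    (Submodule.mem_map_of_mem (f := D.φ) (LinearMap.mem_range_self (Matrix.mulVecLin _) f)))
  simp [omega_apply, ev_mul_eSet, χ.2, CF.Char.irr_one_ne_zero χ.1.2, Nat.card_pos.ne']

theorem card_le_add : Fintype.card W ≤ ((hkC C).map (eval (q : ℂ)⁻¹)).rank + Nat.card (Cst B) := by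
  classical
  rw [← Module.finrank_fintype_fun_eq_card ℂ, Matrix.rank,
    ← LinearMap.finrank_range_add_finrank_ker (Matrix.mulVecLin _), add_le_add_iff_left,
    (Submodule.equivMapOfInjective _ D.φ_injective _).finrank_eq, Nat.card_eq_fintype_card]
  refine (Submodule.finrank_mono ?_).trans (finrank_range_le_card fun χ : Cst B => eB B * eSet {χ.1})
  rintro _ ⟨f, hf, rfl⟩
  have h1 : eB B * avC (D.φ f) = D.φ f * avC (eB B) := by
    obtain ⟨f', h⟩ := D.exists_φ 1
    rw [mul_one, eB_mul_self] at h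
    have h2 := D.sum_U f'
    rw [h] at h2
    rw [← sum_U, ← D.φ_mul_e f, mul_assoc, ← h2, φ_mul_e, mul_sum]
    simp only [D.hkC_mulVec.1 hf, U_mul_e, mul_assoc]
  rw [← mul_one (D.φ f), eq_sum_eSet_singleton (one_mem (Z ℂ G)), mul_sum]
  refine Submodule.sum_mem _ fun χ _ => ?_
  rw [mul_smul_comm]
  refine Submodule.smul_mem _ _ ?_
  by_cases h : ev χ.1 (eB B) = 0
  · rw [← φ_mul_e, mul_assoc, eq_zero_of_idem (u := eB B * eSet {χ}) (by
      rw [mul_assoc, ← mul_assoc (eSet _), ← Z_comm (eSet_mem_Z _), mul_assoc, eSet_mul_self,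
        ← mul_assoc, eB_mul_self]) fun ψ => by grind [ev_mul_eSet], mul_zero]
    exact zero_mem _
  refine (Submodule.smul_mem_iff _ (s := Nat.card G * omega χ.1 (eB B)) ?_).1 ?_
  · simp [omega_apply, h, CF.Char.irr_one_ne_zero χ.2, Nat.card_pos.ne']
  rw [← mul_avC_mul, ← h1, mul_avC_mul]
  exact Submodule.smul_mem _ _ (Submodule.subset_span ⟨⟨χ, h⟩, rfl⟩)

end Dbl

theorem Dbl.card_eq {q q' : ℕ} {G' : Type*} [Group G'] [Fintype G'] {B' : Subgroup G'}
    (D : Dbl C B q) (D' : Dbl C B' q')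
    (h : {c | (hkC C).map (eval c) * (hkH C).map (eval c) = 0}.Infinite) :
    Nat.card (Cst B) = Nat.card (Cst B') := by
  have := rank_add_rank_le h (q : ℂ)⁻¹ (q' : ℂ)⁻¹
  have := rank_add_rank_le h (q' : ℂ)⁻¹ (q : ℂ)⁻¹
  have := D.card_le_add
  have := D'.card_le_add
  have := D.card_le_rank
  have := D'.card_le_rank
  omega

/-- A Coxeter group as a degenerate system of Bruhat cells. -/
def dblW (E : C.Exch) : Dbl C (⊥ : Subgroup W) 1 where
  wt := id
  surj := Function.surjective_id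
  iff := by simp
  one := rfl
  inv _ := rfl
  up _ _ _ h _ := h ▸ rfl
  mul _ _ _ h := .inl (h ▸ rfl)
  card := by simp [filter_eq']
  pos := one_ne_zero
  exch := E

theorem card_cst_bot : Nat.card (Cst (⊥ : Subgroup G)) = Nat.card (ConjClasses G) := by
  rw [← CF.Char.card_irr]
  exact Nat.card_congr (Equiv.subtypeUnivEquiv fun χ => by
    simpa [eB, ev_single, Subgroup.mem_bot.1 (default : (⊥ : Subgroup G)).2] using
      CF.Char.irr_one_ne_zero χ.2)

theorem cst_iff (χ : IrrCharacter G) : ev χ.1 (eB B) ≠ 0 ↔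
    ∃ φ, IsCharacter G φ ∧ fixedPointCharacter B = χ.1 + φ := by
  classical
  have h1 : fixedPointCharacter B = indFun B fun _ => 1 :=
    funext fun g => (CF.Clifford.indFun_one_eq_card_fixedBy B g).symm
  have h2 : ev χ.1 (eB B) = classInner χ.1 (fixedPointCharacter B) := by
    rw [h1, CF.Char.inner_indFun_right B _ (CF.Char.irr_isClassFunction χ.2)]
    simp [eB, ev_single, classInner]
  rw [h2, Ne, CF.Char.inner_eq_zero_comm]
  refine ⟨fun h => ⟨_, CF.Char.char_sub_of_inner_ne_zero (CF.Char.char_fixedBy _) χ.2 h,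
    (add_sub_cancel _ _).symm⟩, fun ⟨φ, h3, h4⟩ => ?_⟩
  obtain ⟨n, hn⟩ := CF.Char.inner_char_eq_nat h3 (CF.Char.irr_isCharacter χ.2)
  rw [h4, CF.Char.inner_add_left, CF.Char.inner_irr_self χ.2, hn]
  exact_mod_cast (by omega : 1 + n ≠ 0)

section

variable {B ι : Type} [Fintype B] [DecidableEq B] [Fintype ι] [DecidableEq ι]
  {C : ChevBasis B ι} {K : Type*} [Field K] [Finite K] {ρ : StRep C K G}

/-- The Bruhat cells of a Chevalley group. -/
noncomputable def StRep.dbl [DecidableEq C.W] (hρ : ρ.Faithful) (hG : ρ.Gp = ⊤) :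
    Dbl C.invGen ρ.Bo (Nat.card K) :=
  let wt (g : G) : C.W := ⟨_, (exists_cell (hG ▸ Subgroup.mem_top g)).choose_spec.1⟩
  have h0 (g) : g ∈ ρ.Cell (wt g) := (exists_cell (hG ▸ Subgroup.mem_top g)).choose_spec.2
  have h (g) (w : C.W) : wt g = w ↔ g ∈ ρ.Cell w :=
    ⟨fun e => e ▸ h0 g, fun e => Subtype.ext (cell_unique hρ (h0 g) e)⟩
  { wt := wt
    surj w := have ⟨n, hn⟩ := ρ.exists_nW w.2; ⟨n, (h _ _).2 hn.mem_cell⟩
    iff g g' := by
      obtain ⟨n, hn⟩ := ρ.exists_nW (wt g').2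
      refine (h _ _).trans ⟨fun e => ?_, ?_⟩
      · obtain ⟨a, ha, b, hb, rfl⟩ := hn.mem_cell_iff.1 e
        obtain ⟨c, hc, d, hd, e⟩ := hn.mem_cell_iff.1 (h0 g')
        exact ⟨_, mul_mem ha (inv_mem hc), _, mul_mem (inv_mem hd) hb, by rw [e]; group⟩
      · rintro ⟨a, ha, b, hb, rfl⟩
        exact cell_mul_right (cell_mul_left ha (h0 _)) hb
    one := (h _ _).2 (mem_cell_one.2 (one_mem _))
    inv g := (h _ _).2 (cell_inv (h0 g))
    up i x y hx hy := (h _ _).2 (mul_mem_cell_of_pos ((h _ _).1 hx) (h0 y) (by_contra fun e => by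
      have := C.length_sref_mul_of_neg (C.W_le_Aut (wt y).2) e
      simp only [RootSys.invGen_len, Subgroup.coe_mul, RootSys.coe_invGen_s] at hy
      omega))
    mul i x y hx := (mul_mem_cell ((h _ _).1 hx) (h0 y)).imp (h _ _).2 (h _ _).2
    card w := by
      rw [C.invGen_len, ← card_cell hρ w.2, ← Fintype.card_subtype, ← Nat.card_eq_fintype_card]
      simp only [h]
    pos := Nat.card_pos.ne'
    exch := C.invGen_exch }

/-- The number of irreducible constituents of `1_B^G` is the number of classes of `W`. -/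
theorem StRep.card_constituents (hρ : ρ.Faithful) (hG : ρ.Gp = ⊤) :
    Nat.card {χ : IrrCharacter G // ∃ φ, IsCharacter G φ ∧ fixedPointCharacter ρ.Bo = χ.1 + φ} =
      Nat.card (ConjClasses C.W) := by
  classical
  have := Fintype.ofFinite C.W
  rw [← card_cst_bot, ← (dbl hρ hG).card_eq _ (dblW _ C.invGen_exch)]
  · simp only [← cst_iff]
  refine Set.infinite_of_injective_forall_mem (f := fun k : ℕ => ((2 ^ (k + 1) : ℕ) : ℂ)⁻¹)
    (fun a b e => by simpa using Nat.cast_injective (inv_injective e)) fun k => ?_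
  have := (r3_adSt (C := C) (K := GaloisField 2 (k + 1))).finite_Gp faithful_adSt
  have := Fintype.ofFinite (C.adSt (GaloisField 2 (k + 1))).Gp
  exact GaloisField.card 2 (k + 1) k.succ_ne_zero ▸ (dbl faithful_adRes (res_Gp _)).good

end

theorem IsLink.card_constituents {D : Lie.ChevalleyDatum}
    {C : ChevBasis (Fin D.rank) (Fin D.nroots)} (L : IsLink D C.toLieBasis) (K : Type*) [Field K]
    [Finite K] {M : CoxeterMatrix (Fin D.rank)} (hM : ∀ i j, orderOf (C.wp [i, j]) = M i j) :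
    Nat.card {χ : IrrCharacter (D.group K) // ∃ φ, IsCharacter (D.group K) φ ∧
      fixedPointCharacter ((D.borelSubgroup K).subgroupOf (D.group K)) = χ.1 + φ} =
      Nat.card (ConjClasses M.Group) := by
  have := (L.gpRep K).r3_of_finite.finite (L.faithful_gpRep K) (L.gpRep_Gp K)
  have := Fintype.ofFinite (D.group K)
  obtain ⟨e, -⟩ := C.exists_coxeterSystem M hM
  rw [← L.gpRep_Bo K, StRep.card_constituents (L.faithful_gpRep K) (L.gpRep_Gp K)]
  have := Finite.of_equiv _ e.toEquiv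
  exact (Nat.card_le_card_of_surjective _ (ConjClasses.map_surjective (f := e.symm.toMonoidHom)
    e.symm.surjective)).antisymm (Nat.card_le_card_of_surjective _
      (ConjClasses.map_surjective (f := e.toMonoidHom) e.surjective))

end CF.Chev
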